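import Mathlib
import Cfsg.Agent.Lib.Th.Main
import Cfsg.Agent.Lib.Th.E8Data
import Cfsg.Agent.Lib.Chev.CertE8
import Cfsg.Agent.Lib.Chev.Units

/-!
# The Thompson group is a subgroup of `E₈(3)`
-/

set_option autoImplicit false
set_option maxRecDepth 100000

namespace CfsgLib.Th

open Cfsg.Spor Cfsg.Lie CfsgLib.Comput CfsgLib.LinP CfsgLib.Chev Matrix

/-- numbering of the Chevalley basis -/
def eI : chevE8.Idx ≃ Fin 248 := finSumFinEquiv (m := 8) (n := 240)

theorem hV_eI {i : ℕ} (hi : i < 8) : hV chevE8 (ZMod 3) i ∘ eI.symm = eP 3 248 i := by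
  refine (Equiv.comp_symm_eq eI _ _).2 (funext fun k => ?_)
  rcases k with k | k
  · rfl
  · exact (if_neg (show 8 + k.1 ≠ i by omega)).symm

theorem eV_eI (s : ℕ) : eV chevE8 (ZMod 3) s ∘ eI.symm = eP 3 248 (8 + s) := by
  refine (Equiv.comp_symm_eq eI _ _).2 (funext fun k => ?_)
  rcases k with k | k
  · have : k.1 < 8 := k.2
    exact (if_neg (show k.1 ≠ 8 + s by omega)).symm
  · exact if_congr (show k.1 = s ↔ 8 + k.1 = 8 + s by omega) rfl rfl

theorem m3_smul (z : ℤ) (v : Fin 248 → ZMod 3) : m3 z • v = (z : ZMod 3) • v := by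
  rw [← Nat.cast_smul_eq_nsmul (ZMod 3), m3, ← Int.cast_natCast, Int.toNat_of_nonneg (Int.emod_nonneg _ (by norm_num))]
  exact congrArg (· • v) (ZMod.intCast_mod z 3)

/-- the root element with a given code -/
noncomputable def xE (x : ℕ) : GL chevE8.Idx (ZMod 3) := xU chevE8 (ZMod 3) (x / 2) (x % 2 + 1 : ℕ)

/-- renumbering of matrices -/
noncomputable def rI : GL chevE8.Idx (ZMod 3) →* Mx :=
  (reindexAlgEquiv (ZMod 3) (ZMod 3) eI).toMulEquiv.toMonoidHom.comp (Units.coeHom _)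

theorem rI_smul (y : GL chevE8.Idx (ZMod 3)) (v : chevE8.Idx → ZMod 3) :
    rI y • (v ∘ eI.symm) = (y.1 *ᵥ v) ∘ eI.symm := by
  have := submatrix_mulVec_equiv y.1 (v ∘ eI.symm) eI.symm eI.symm
  rwa [Function.comp_assoc, Equiv.symm_symm, Equiv.symm_comp_self, Function.comp_id] at this

theorem xE_smul {x : ℕ} (hx : x < 480) (j : ℕ) :
    rI (xE x) • eP 3 248 j = ((ent x j).map fun q => q.2 • eP 3 248 q.1).sum := by
  have hr : x / 2 < chevE8.nroots := show _ < 240 by omega
  have h := matchE8.ofD_eq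
  have h1 : chevE8.neg (x / 2) = 239 - x / 2 := (congrFun (congrArg Tab.neg h) _).trans (by
    change cond (Nat.blt (x / 2) 240) _ _ = _
    rw [Nat.blt_eq.mpr (show x / 2 < 240 from hr)]
    rfl)
  have ht : ((x % 2 + 1 : ℕ) : ZMod 3) ^ 2 = 1 := by rcases Nat.mod_two_eq_zero_or_one x with e | e <;> rw [e] <;> rfl
  rw [ent, Comput.force_eq, List.map_cons, List.sum_cons, one_smul]
  by_cases hj : j < 8
  · rw [Nat.blt_eq.mpr hj, cond_true, ← hV_eI hj, rI_smul, xE, xU_val, x_eq_xR, xR_hV hr hj, List.map_singleton,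
      List.sum_singleton, m3_smul, ← eV_eI, show fastE8.cartan = chevE8.cartan from (congrArg Tab.cartan h).symm]
    rw [Int.cast_neg, Int.cast_mul, Int.cast_natCast, neg_smul, ← sub_eq_add_neg]
    rfl
  obtain ⟨s, rfl⟩ := Nat.exists_eq_add_of_le (not_lt.1 hj)
  rw [Bool.eq_false_iff.2 (mt Nat.blt_eq.mp hj), cond_false, Nat.add_sub_cancel_left, ← eV_eI, rI_smul, xE, xU_val,
    x_eq_xR]
  by_cases h2 : s = 239 - x / 2
  · rw [Nat.beq_eq.mpr h2, cond_true, h2, ← h1, xR_eV_neg hr, ht, cV_eq_sum, List.map_cons, List.sum_cons, ← eV_eI,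
      List.map_map, show fastE8.cor = cor chevE8 from (congrArg Tab.cor h).symm]
    have h3 : ∀ n ≤ 8, (((x % 2 + 1 : ℕ) : ZMod 3) • ∑ i ∈ Finset.range n, ((cor chevE8 (x / 2) i : ℤ) : ZMod 3) •
        hV chevE8 (ZMod 3) i) ∘ eI.symm = ((List.range n).map ((fun q : ℕ × ℕ => q.2 • eP 3 248 q.1) ∘ fun i =>
        (i, m3 ((x % 2 + 1 : ℕ) * cor chevE8 (x / 2) i)))).sum := fun n hn => by
      induction n with
      | zero => simp
      | succ n ih =>
        rw [List.range_succ, List.map_append, List.sum_append, ← ih (by omega), Finset.sum_range_succ, smul_add,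
          List.map_singleton, List.sum_singleton, Function.comp_apply, m3_smul, ← hV_eI hn, Int.cast_mul,
          Int.cast_natCast, mul_smul]
        rfl
    rw [← h3 8 le_rfl, ← Nat.cast_smul_eq_nsmul (ZMod 3) 2, show ((2 : ℕ) : ZMod 3) = -1 from rfl, neg_smul,
      add_comm (-_), ← add_assoc, ← sub_eq_add_neg]
    rfl
  rw [Bool.eq_false_iff.2 (mt Nat.beq_eq.mp h2), cond_false, ← matchE8.chainEntry, List.map_map]
  by_cases h3 : s < 240
  · rw [xR_eV hr h3 (h1 ▸ h2), chainSum]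
    refine congrArg (eV chevE8 (ZMod 3) s ∘ eI.symm + ·) (?_ : List.sum _ ∘ eI.symm = _)
    generalize (chevE8.chainEntry (x / 2) s).zipIdx = L
    induction L with
    | nil => rfl
    | cons q L ih =>
      rw [List.map_cons, List.map_cons, List.sum_cons, List.sum_cons, ← ih, Function.comp_apply, m3_smul, ← eV_eI]
      push_cast
      rfl
  · have h4 : eV chevE8 (ZMod 3) s = 0 := funext fun k => by
      rcases k with k | k
      exacts [rfl, if_neg fun e : k.1 = s => h3 (e ▸ k.2)]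
    rw [h4, mulVec_zero, matchE8.chainEntry, matchE8.chain_out _ _ (.inr (not_lt.1 h3))]
    simp

theorem dv_add {x y : ℕ} (c : ℕ) (hc : c < 3) (hx : Col P3 x) (hy : Col P3 y) :
    Col P3 (red P3 248 (c * x + y)) ∧ dv (red P3 248 (c * x + y)) 0 = c • dv x 0 + dv y 0 := by
  have h1 : ∀ j, c * dg 23 x j ≤ 2 * 2 := fun j => Nat.mul_le_mul (by omega) (Nat.le_of_lt_succ (hx.2 j))
  have h2 : ∀ j, dg 23 (c * x + y) j = c * dg 23 x j + dg 23 y j := fun j => by
    have h2 := dg_mul fun j => (h1 j).trans_lt (by norm_num)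
    rw [dg_add fun k => by have := h1 k; have : dg 23 y k < 3 := hy.2 k; rw [h2]; omega, h2]
  have h3 := dg_red P3_ok (x := c * x + y) (fun j => by
    have := h1 j
    have : dg 23 y j < 3 := hy.2 j
    change dg 23 _ j ≤ 248 * (3 * 3)
    rw [h2]; omega) 248
  refine ⟨⟨lt_of_dg (by norm_num) fun j hj => (h3 j).trans (if_neg (not_lt.2 hj)), fun j => ?_⟩, funext fun i => ?_⟩
  · rw [h3]
    split_ifs
    exacts [Nat.mod_lt _ (by norm_num), by norm_num]
  · simp only [Pi.add_apply, Pi.smul_apply, decP_eP, Nat.zero_mul, Nat.zero_add]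
    rw [show dg 23 _ i = _ from h3 i, if_pos i.2]
    simp [h2]

theorem col_zero : Col P3 0 := ⟨Nat.two_pow_pos _, fun j => by rw [dg_zero_left]; norm_num⟩

theorem lin_sound {f : ℕ → ℕ} (hf : ∀ j, Col P3 (f j)) : ∀ {E : List (ℕ × ℕ)}, (∀ q ∈ E, q.2 < 3) →
    Col P3 (lin f E) ∧ dv (lin f E) 0 = (E.map fun q => q.2 • dv (f q.1) 0).sum
  | [], _ => ⟨col_zero, funext fun i => by rw [dv, decP_eP]; simp [lin, dg_zero_left]⟩
  | q :: E, h => by
    obtain ⟨h1, h2⟩ := lin_sound hf fun k hk => h k (List.mem_cons_of_mem _ hk)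
    rw [show lin f (q :: E) = red P3 248 (q.2 * Comput.force q.1 f + lin f E) from rfl, Comput.force_eq, List.map_cons,
      List.sum_cons, ← h2]
    exact dv_add _ (h q List.mem_cons_self) (hf _) h1

theorem ent_lt (x j : ℕ) : ∀ q ∈ ent x j, q.2 < 3 := by
  have h : ∀ z, m3 z < 3 := fun z => by rw [m3]; omega
  rw [ent, Comput.force_eq]
  cases Nat.blt j 8 <;> cases Nat.beq (j - 8) (239 - x / 2) <;>
    simp only [cond_true, cond_false, List.forall_mem_cons, List.forall_mem_map, h] <;> simp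

theorem act_spL {K : List ℕ} (h : K.length = 248) : ActP P3 (eP 3 248) (spL K) (matP 3 248 23 (spL K)) := by
  refine ⟨by rw [spL_eq, List.length_map, h], fun c hc => ?_, fun k hk => ?_⟩
  · rw [spL_eq] at hc
    obtain ⟨x, -, rfl⟩ := List.mem_map.1 hc
    exact col_sp x
  · ext i
    rw [decP_eP, Nat.zero_mul, Nat.zero_add]
    exact smul_eP _ ⟨k, hk⟩ i

/-- the change of basis -/
noncomputable def PP : Mx := matP 3 248 23 (spL KP)

/-- a reversed word in root elements -/
noncomputable def wE : List ℕ → GL chevE8.Idx (ZMod 3)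
  | [] => 1
  | x :: W => wE W * xE x

theorem wE_mem : ∀ W, wE W ∈ chevE8.group (ZMod 3)
  | [] => one_mem _
  | _ :: W => mul_mem (wE_mem W) (xU_mem_group _ _)

theorem col_getD {M : List ℕ} (h : ∀ c ∈ M, Col P3 c) (j : ℕ) : Col P3 (M.getD j 0) := by
  rw [← nth_eq_getD]
  exact (nth_mem_or 0 M j).elim (h _) fun e => e.symm ▸ col_zero

theorem col_sound : ∀ {W : List ℕ}, (∀ x ∈ W, x < 480) → ∀ j,
    Col P3 (col W j) ∧ dv (col W j) 0 = (PP * rI (wE W)) • eP 3 248 j
  | [], _, j => by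
    obtain ⟨h1, h2, h3⟩ := act_spL (K := KP) (by decide +kernel)
    rw [wE, map_one, mul_one, show col [] j = nth 0 (spL KP) j from by rw [col], nth_eq_getD]
    refine ⟨col_getD h2 j, ?_⟩
    by_cases hj : j < 248
    · exact (h3 j hj).symm
    · rw [List.getD_eq_default _ _ (h1.trans_le (not_lt.1 hj)), show eP 3 248 j = 0 from funext fun i =>
        if_neg fun e : i.1 = j => hj (e ▸ i.2), smul_zero]
      exact (lin_sound (E := []) (fun _ => col_zero) (by simp)).2
  | x :: W, h, j => by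
    have h1 := col_sound fun k hk => h k (List.mem_cons_of_mem _ hk)
    obtain ⟨h2, h3⟩ := lin_sound (fun k => (h1 k).1) (ent_lt x j)
    refine ⟨h2, h3.trans ?_⟩
    rw [wE, map_mul, ← mul_assoc, mul_smul, xE_smul (h x List.mem_cons_self), List.smul_sum, List.map_map]
    exact congrArg _ (List.map_congr_left fun q _ => by rw [(h1 _).2, Function.comp_apply, smul_comm])

theorem dv_pack {M : List ℕ} (h : ∀ c ∈ M, Col P3 c) :
    Good P3 (pack M) ∧ ∀ c, dv (pack M) c = dv (M.getD c 0) 0 := by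
  refine ⟨fun j => ?_, fun c => funext fun i => ?_⟩
  · rw [← Nat.div_add_mod' j 248, ← dg_dg _ _ _ (Nat.mod_lt _ (by norm_num)), dg_pack h]
    exact (col_getD h _).2 _
  · rw [dv, dv, decP_eP, decP_eP, ← dg_dg _ _ _ i.2, dg_pack h, Nat.zero_mul, Nat.zero_add]

theorem app_PP {M : List ℕ} {a : Mx} (h : ActP P3 (eP 3 248) M a) {k : ℕ} (hk : k < 248) :
    (a * PP) • eP 3 248 k = dv (appP P3 248 M (pack (spL KP))) k := by
  obtain ⟨-, h2, h3⟩ := act_spL (K := KP) (by decide +kernel)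
  rw [dv, decP_appP P3_ok p_smul h _ (dv_pack h2).1 hk, mul_smul, PP, h3 k hk]
  exact congrArg _ ((dv_pack h2).2 k).symm

theorem wOK_sound {m : ℕ} {W : List ℕ} (h : wOK m W = true) (hm : m < 20) (hW : ∀ x ∈ W, x < 480) :
    A m * PP = PP * rI (wE W) := eq_of_smul_eP fun k hk => by
  rw [app_PP (actA hm) hk, Nat.eq_of_beq_eq_true h, (dv_pack (by simpa [Comput.force_eq] using fun j _ =>
    (col_sound hW j).1)).2, ← (col_sound hW k).2]
  simp [hk, Comput.force_eq]

/-- the inverse change of basis -/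
noncomputable def PI : Mx := matP 3 248 23 (spL KI)

theorem PI_PP : PI * PP = 1 := eq_of_smul_eP fun k hk => by
  rw [PI, app_PP (act_spL (by decide +kernel)) hk, Nat.eq_of_beq_eq_true KI_ok, one_smul]
  exact decP_idP P3_ok _ hk

/-- the change of basis -/
noncomputable def PU : GL (Fin 248) (ZMod 3) := ⟨PP, PI, mul_eq_one_comm.1 PI_PP, PI_PP⟩

/-- the representation of the Chevalley group in the new basis -/
noncomputable def ψE : chevE8.group (ZMod 3) →* GL (Fin 248) (ZMod 3) :=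
  (MulAut.conj PU).toMonoidHom.comp (rI.comp (Subgroup.subtype _)).toHomUnits

theorem ψE_inj : Function.Injective ψE := fun _ _ e => Subtype.ext (Units.ext ((reindex eI eI).injective
  (congrArg Units.val ((MulAut.conj PU).injective e))))

theorem ρ_lt_mem {m : ℕ} {W : List ℕ} (h : wOK m W = true) (hm : m < 11) (hW : ∀ x ∈ W, x < 480) :
    ρ (lt g m) ∈ ψE.range := by
  refine ⟨⟨_, wE_mem W⟩, (mul_inv_eq_iff_eq_mul (a := PU * _)).2 (Units.ext ?_)⟩
  exact (wOK_sound h (by omega) hW).symm.trans (congrArg (· * PP) (R_lt hm).symm)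

theorem ρ_mem (x : Th) : ρ x ∈ ψE.range := by
  refine (CosetEnum.gen_le (H := ψE.range.comap ρ)).2 (fun w hw => ?_) (topG.ge (Subgroup.mem_top x))
  obtain ⟨j, hj, rfl⟩ : ∃ j < 8, [2 * j] = w := by revert w; decide
  rw [CosetEnum.ev_single, Subgroup.mem_comap, show g j = lt g ([0, 10, 1, 2, 3, 4, 6, 8].getD j 0) by
    interval_cases j <;> rfl]
  interval_cases j
  exacts [ρ_lt_mem WE0_ok (by norm_num) (by decide), ρ_lt_mem WE1_ok (by norm_num) (by decide),
    ρ_lt_mem WE2_ok (by norm_num) (by decide), ρ_lt_mem WE3_ok (by norm_num) (by decide),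
    ρ_lt_mem WE4_ok (by norm_num) (by decide), ρ_lt_mem WE5_ok (by norm_num) (by decide),
    ρ_lt_mem WE6_ok (by norm_num) (by decide), ρ_lt_mem WE7_ok (by norm_num) (by decide)]

/-- The Thompson group is isomorphic to a subgroup of `E₈(3)`. -/
theorem exists_E8 : ∃ f : Th →* chevE8.group (ZMod 3), Function.Injective f :=
  ⟨(MonoidHom.ofInjective ψE_inj).symm.toMonoidHom.comp (ρ.codRestrict _ ρ_mem),
    (MonoidHom.ofInjective ψE_inj).symm.injective.comp fun _ _ e => ρ_inj (congrArg Subtype.val e)⟩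

end CfsgLib.Th
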