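import Mathlib
import Cfsg.Agent.Lib.Th.Main
import Cfsg.Agent.Lib.Th.MEnum
import Cfsg.Agent.Lib.Schur.Cover

/-!
# The Schur multiplier of the presented Thompson group is trivial
-/

set_option autoImplicit false
set_option maxRecDepth 100000

namespace CfsgLib.Th

open Cfsg.Spor CfsgLib.CosetEnum CfsgLib.Schur

variable {Γ : Type*} [Group Γ] {σ : Γ →* Th} {f : ℕ → Γ}

/-- the exponent sum -/
def expo (i : ℕ) : List ℕ → ℤ
  | [] => 0
  | x :: w => (if x / 2 = i then if x % 2 = 0 then 1 else -1 else 0) + expo i w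

theorem ev_update {c : Γ} (hc : ∀ x, Commute x c) (i : ℕ) :
    ∀ w : List ℕ, ev (Function.update f i (f i * c)) w = ev f w * c ^ expo i w
  | [] => by simp [ev_nil, expo]
  | x :: w => by
    have h1 : evL (Function.update f i (f i * c)) x =
        evL f x * c ^ (if x / 2 = i then if x % 2 = 0 then 1 else -1 else 0 : ℤ) := by
      rw [evL, evL]
      by_cases h : x / 2 = i
      · subst h
        by_cases h : x % 2 = 0 <;> simp [h, (hc _).inv_inv.eq]
      · simp [h]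
    rw [ev_cons, ev_cons, ev_update hc i w, expo, zpow_add, h1, ((hc _).zpow_right _).symm.mul_mul_mul_comm]

/-- lifts of the generators -/
def Lift (σ : Γ →* Th) (f : ℕ → Γ) : Prop := ∀ i, σ (f i) = g i

theorem Lift.ev (hf : Lift σ f) (w : List ℕ) : σ (ev f w) = ev g w := by rw [map_ev, funext hf]

theorem normalize (h : IsCentralExt σ) : ∀ L : List (ℕ × List ℕ), (∀ e ∈ L, ev g e.2 = 1 ∧ expo e.1 e.2 = 1) →
    (L.Pairwise fun e e' => expo e.1 e'.2 = 0) → ∃ f, Lift σ f ∧ ∀ e ∈ L, ev f e.2 = 1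
  | [], _, _ => ⟨fun i => Function.surjInv h.surj (g i), fun _ => Function.surjInv_eq _ _, by simp⟩
  | e :: L, h1, h2 => by
    obtain ⟨h1, h3⟩ := List.forall_mem_cons.1 h1
    obtain ⟨h2, h4⟩ := List.pairwise_cons.1 h2
    obtain ⟨f, hf, h5⟩ := normalize h L h3 h4
    have h6 : σ (ev f e.2)⁻¹ = 1 := by rw [map_inv, hf.ev, h1.1, inv_one]
    refine ⟨Function.update f e.1 (f e.1 * (ev f e.2)⁻¹), fun i => ?_, List.forall_mem_cons.2 ⟨?_, fun e' he => ?_⟩⟩
    · by_cases hi : i = e.1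
      · rw [hi, Function.update_self, map_mul, h6, mul_one, hf]
      · rw [Function.update_of_ne hi, hf]
    · rw [ev_update (h.comm h6), h1.2, zpow_one, mul_inv_cancel]
    · rw [ev_update (h.comm h6), h2 e' he, zpow_zero, mul_one, h5 e' he]

/-- the relations for the central generators -/
def covR (R : List (List ℕ)) : List (List ℕ) := ((List.range R.length).map fun k => R.getD k [] ++ [2 * (8 + k) + 1]) ++
  (List.range R.length).flatMap fun k => (List.range (8 + R.length)).map fun j =>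
    [2 * j, 2 * (8 + k), 2 * j + 1, 2 * (8 + k) + 1]

theorem derive {im : ℕ} (hi : InvOk f im) {K ws : List (List ℕ)} (hK : ∀ w ∈ K, ev f w = 1) {hs : List ℕ}
    (h : conseq im (K.map (normW im)) ws hs = true) : ∀ w ∈ ws, ev f w = 1 :=
  conseq_sound hi (List.forall_mem_map.2 fun w hw => (ev_normW hi w).trans (hK w hw)) h

theorem cov_step (h : IsCentralExt σ) (hf : Lift σ f) {N : ℕ} {nets : List Net} {invs hs : List ℕ}
    {rels subs ys K R : List (List ℕ)} {C : CE} (M : Model N nets (imOf invs) rels)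
    (hc : ∃ progs, CE.check { C with progs := progs } nets (imOf invs) rels subs ys = true)
    (hK : ∀ w ∈ sqW invs ++ K, ev f w = 1) (hR : ∀ w ∈ R, ev g w = 1) {H : Subgroup Γ}
    (hH : ∀ x ∈ H, σ x = 1 → x = 1) (hs' : ∀ u ∈ subs, ev f u ∈ H)
    (h1 : conseq (imOf invs) ((K ++ covR R).map (normW (imOf invs))) rels hs = true ∧
      (∀ w ∈ sqW invs ++ K ++ R ++ subs, ∀ x ∈ w, x / 2 < 8) ∧
      ∀ k < R.length, [2 * (8 + k)] ∈ ys ∧ fixesP nets [2 * (8 + k)] C.p0 = true) : ∀ w ∈ R, ev f w = 1 := by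
  obtain ⟨h1, h2, h3⟩ := h1
  simp only [List.forall_mem_append] at h2 hK
  let F : ℕ → Γ := fun i => if i < 8 then f i else ev f (R.getD (i - 8) [])
  have e1 : ∀ {w : List ℕ}, (∀ x ∈ w, x / 2 < 8) → ev F w = ev f w := fun hw => ev_congr fun x hx => if_pos (hw x hx)
  have e2 : ∀ k, F (8 + k) = ev f (R.getD k []) := fun k => by simp [F]
  have e3 : ∀ k < R.length, R.getD k [] ∈ R := fun k hk => List.getD_eq_getElem _ _ hk ▸ List.getElem_mem _
  have e4 : ∀ k < R.length, σ (F (8 + k)) = 1 := fun k hk => by rw [e2, hf.ev, hR _ (e3 k hk)]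
  have hi : InvOk F (imOf invs) := invOk_of_sqW fun w hw => (e1 (h2.1.1.1 w hw)).trans (hK.1 w hw)
  have hr := derive hi (List.forall_mem_append.2 ⟨fun w hw => (e1 (h2.1.1.2 w hw)).trans (hK.2 w hw), fun w hw => by
    simp only [covR, List.mem_append, List.mem_map, List.mem_flatMap, List.mem_range] at hw
    rcases hw with ⟨k, hk, rfl⟩ | ⟨k, hk, j, -, rfl⟩
    · rw [ev_append, e1 (h2.1.2 _ (e3 k hk)), ev_cons, ev_nil, evL_two_mul_add_one, e2, mul_one, mul_inv_cancel]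
    · simp only [ev_cons, ev_nil, evL_two_mul, evL_two_mul_add_one, ← mul_assoc, h.comm (e4 k hk) (F j)]
      simp⟩) h1
  intro w hw
  obtain ⟨k, hk, rfl⟩ := List.getElem_of_mem hw
  rw [← List.getD_eq_getElem _ [] hk, ← e2]
  refine hH _ ?_ (e4 k hk)
  have := Reach.stab_le (M.setting_prod F) (hi.prod M.inv) (M.prod_rel hr) (H := H.comap (MonoidHom.fst _ _))
    (fun u hu => by rw [ev_prod]; exact (e1 (h2.2 u hu)).symm ▸ hs' u hu) hc _ (ev_mem_gen _ (h3 k hk).1)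
    ((M.setting_prod F).fixesP_sound (h3 k hk).2)
  rwa [ev_single] at this

theorem comm_of_coprime (h : IsCentralExt σ) {x y : Γ} {m n : ℕ} (hc : σ x * σ y = σ y * σ x) (hx : σ (x ^ m) = 1)
    (hy : σ (y ^ n) = 1) (hn : m.Coprime n) : x * y = y * x := by
  have key : ∀ {x y : Γ} {n : ℕ}, σ x * σ y = σ y * σ x → σ (y ^ n) = 1 → (x * y * x⁻¹ * y⁻¹) ^ n = 1 :=
    fun {x y n} hc hy => by
    have h1 : Commute y (x * y * x⁻¹ * y⁻¹) := h.comm (by simp [hc]) y
    have h2 := h1.symm.mul_pow n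
    rwa [inv_mul_cancel_right, conj_pow, h.comm hy, mul_inv_cancel_right, eq_comm, mul_eq_right] at h2
  have h1 := key hc hy
  have h2 := key hc.symm hx
  rw [show y * x * y⁻¹ * x⁻¹ = (x * y * x⁻¹ * y⁻¹)⁻¹ by group, inv_pow, inv_eq_one] at h2
  have h3 := (pow_gcd_eq_one.2 ⟨h2, h1⟩)
  rwa [hn, pow_one, mul_inv_eq_one, mul_inv_eq_iff_eq_mul] at h3

theorem g_H {L : List (List ℕ)} (h : ∀ w ∈ L, eqH w [] = true ∧ ∀ x ∈ w ++ [], x / 2 < 7) : ∀ w ∈ L, ev g w = 1 :=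
  fun w hw => eqH_g (h w hw)

/-- the normalising words -/
def NW : List (ℕ × List ℕ) := [(7, [14, 10, 14, 10, 14, 10, 15, 15]), (6, [12, 12, 15, 13, 14]), (2, [2, 4, 2, 4, 2, 5]),
  (1, [0, 2, 0, 2, 0, 3]), (0, [0, 4, 4, 4, 4, 6, 5, 6, 5, 6, 5, 6, 5]),
  (5, [10, 10, 10, 10, 10, 10, 10, 7, 11, 7, 11, 7, 11, 7, 11, 7, 11, 7, 11]), (3, [6, 8, 6, 8, 6, 8, 7, 7]),
  (4, [11, 11, 11, 8, 10, 10, 9, 10, 8])]

theorem eqC_q {l r : List ℕ} (h : EC (l.map tr, r.map tr) = true ∧ ∀ c ∈ l ++ r, c ∈ [0, 4, 6, 8, 10, 11, 12, 13, 14, 15]) :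
    ev q l = ev q r := by
  have key : ∀ w : List ℕ, (∀ c ∈ w, c ∈ [0, 4, 6, 8, 10, 11, 12, 13, 14, 15]) →
      ev q w = Comput.evL (lt q) (w.map tr) := fun w hw => by
    rw [← ev_tr rfl rfl rfl fun c hc => (by decide : ∀ c ∈ [0, 4, 6, 8, 10, 11, 12, 13, 14, 15],
      c ∈ [0, 2, 4, 6, 8, 10, 11, 12, 13, 14, 15]) c (hw c hc)]
    refine ev_congr fun x hx => ?_
    have := hw x hx
    fin_cases this <;> rfl
  rw [key l fun c hc => h.2 c (List.mem_append_left _ hc), key r fun c hc => h.2 c (List.mem_append_right _ hc)]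
  exact EC_holds h.1

theorem πC_ev {w : List ℕ} (h : ∀ x ∈ w, x / 2 < 8 ∧ x / 2 ≠ 1) : πC (ev q w) = ev g w :=
  (map_ev πC q w).trans (ev_congr fun x hx => πC_q (h x hx).1 (h x hx).2)

theorem exists_lift (h : IsCentralExt σ) : ∃ f, Lift σ f ∧ ∀ e ∈ NW, ev f e.2 = 1 := by
  refine normalize h NW (fun e he => ⟨?_, by revert e; decide⟩) (by decide)
  rcases List.mem_cons.1 he with rfl | he
  · rw [← πC_ev (by decide), eqC_q (r := []) (by decide +kernel), ev_nil, map_one]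
  rcases List.mem_cons.1 he with rfl | he
  · rw [← πC_ev (by decide), eqC_q (r := []) (by decide +kernel), ev_nil, map_one]
  exact g_H (L := NW.tail.tail.map Prod.snd) (by decide +kernel) _ (List.mem_map_of_mem he)

theorem inj_de (hf : Lift σ f) (h : ∀ w ∈ [[6, 6], [8, 8], [6, 8, 6, 8, 6, 8]], ev f w = 1) :
    ∀ x ∈ gen f [[6], [8]], σ x = 1 → x = 1 := by
  let F : ℕ → Γ := fun i => if i < 3 then 1 else f i
  simp only [List.forall_mem_cons] at h
  have h1 := (bound_nil F).of_idx (S0_idx (g := F) (invOk_of_sqW (by simpa [sqW, mapL, ev, evL, F] using And.intro h.1 h.2.1))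
    (by simpa [S0_rels, ev, evL, F] using h.2.2.1))
  have h2 : (gen f [[6], [8]]).map σ = (gen p [[6], [8]]).map πH := by
    rw [map_gen, map_gen, funext hf]
    simp [gen, ev, evL, πH_p]
  have h3 := S.le_card p_inv le_rfl chainD_ok
  have h4 := card_inf_mul_relIndex σ.ker (gen f [[6], [8]])
  rw [Bound, show gen F [[6], [8]] = gen f [[6], [8]] by simp [gen, ev, evL, F]] at h1
  rw [Subgroup.relIndex_ker, h2, Subgroup.card_map_of_injective πH_inj] at h4
  have := h1.1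
  have := Finite.of_injective _ (Subgroup.inclusion_injective (inf_le_left : gen f [[6], [8]] ⊓ σ.ker ≤ _))
  have h5 : Nat.card (gen f [[6], [8]] ⊓ σ.ker : Subgroup Γ) ≤ 1 := by
    have h6 := h1.2
    have h7 : 6 ≤ Nat.card (gen p [[6], [8]]) := h3
    nlinarith
  exact fun x hx e => Subgroup.mem_bot.1 ((Subgroup.eq_bot_of_card_le _ h5).le ⟨hx, e⟩)

theorem pw (l : ℕ → Γ) (i n : ℕ) : ev l (List.replicate n (2 * i)) = l i ^ n := by simp [ev, evL_two_mul]

theorem icp (a b : Γ) (n : ℕ) : (a⁻¹ * b * a) ^ n = a⁻¹ * b ^ n * a := by simpa using conj_pow (a := a⁻¹) (b := b)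

theorem rel_H (h : IsCentralExt σ) (hf : Lift σ f) (hN : ∀ e ∈ NW, ev f e.2 = 1) :
    (∀ w ∈ sq5 ++ RH, ev f w = 1) ∧ ev f [15, 12, 14, 12] = 1 := by
  have hN' : ∀ w ∈ NW.map Prod.snd, ev f w = 1 := List.forall_mem_map.2 hN
  have k0 : ∀ w ∈ M0K, ev f w = 1 := fun w hw => hN' w (by revert w; decide)
  have r0 := cov_step h hf M0_model M0_chk (K := M0K) (R := M0R) (hs := M0h) k0 (g_H (by decide +kernel)) (H := ⊥)
    (fun _ h _ => h) (by simp) (by decide +kernel)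
  have i0 : ∀ w ∈ sqW [3, 4], ev f w = 1 := fun w hw => r0 w (by revert w; decide)
  have d0 := derive (invOk_of_sqW i0) k0 (ws := [[6, 8, 6, 8, 6, 8]]) (hs := [1025]) (by decide +kernel)
  have k1 : ∀ w ∈ M1K, ev f w = 1 := List.forall_mem_cons.2 ⟨d0 _ List.mem_cons_self, fun w hw => hN' w (by
    revert w; decide)⟩
  have r1 := cov_step h hf M1_model M1_chk (K := M1K) (R := M1R) (hs := M1h) (rels_append i0 k1)
    (g_H (by decide +kernel)) (inj_de hf (rels_append i0 d0)) (fun _ => ev_mem_gen f) (by decide +kernel)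
  have i1 : ∀ w ∈ sq5, ev f w = 1 := fun w hw => rels_append r0 r1 w (by revert w; decide)
  have sq : ∀ j < 5, f j * f j = 1 := fun j hj => by
    simpa only [ev_cons, ev_nil, evL_two_mul, mul_one] using i1 [2 * j, 2 * j] (by revert j; decide)
  have cm : ∀ i j n, (eqH [2 * i, 2 * j] [2 * j, 2 * i] = true ∧ ∀ x ∈ [2 * i, 2 * j] ++ [2 * j, 2 * i], x / 2 < 7) ∧
      List.replicate n (2 * i) ∈ RG ∧ n.Coprime 2 ∧ j < 5 → f i * f j = f j * f i := fun i j n ⟨h1, h2, h3, h4⟩ =>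
    comm_of_coprime h (by simpa only [ev_cons, ev_nil, evL_two_mul, mul_one, hf i, hf j] using eqH_g h1)
      (by rw [map_pow, hf, ← pw, g_rel _ h2]) (by rw [pow_two, sq j h4, map_one]) h3
  have cm' : ∀ i j, j < 5 → f i * f j = f j * f i → ev f [2 * i + 1, 2 * j, 2 * i, 2 * j] = 1 := fun i j hj e => by
    simp only [ev_cons, ev_nil, evL_two_mul, evL_two_mul_add_one, mul_one, e]
    rw [← mul_assoc (f j), sq j hj, one_mul, inv_mul_cancel]
  have t1 : (f 7)⁻¹ * f 6 * f 7 = f 6 ^ 2 := by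
    have := hN' [12, 12, 15, 13, 14] (by decide)
    simp only [ev_cons, ev_nil, evL] at this
    norm_num at this
    rw [← mul_assoc, mul_eq_one_iff_eq_inv] at this
    rw [pow_two, this]
    group
  have t2 : f 6 ^ 3 = 1 := by
    have h1 : σ (f 6 ^ 3) = 1 := by rw [map_pow, hf, ← pw, g_rel _ (by decide)]
    have h2 := congrArg (· ^ 3) t1
    simp only [icp] at h2
    rwa [h.comm h1, inv_mul_cancel_right, ← pow_mul, show 2 * 3 = 3 + 3 from rfl, pow_add, left_eq_mul] at h2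
  have t3 : ev f [13, 10, 12, 11, 11] = 1 := by
    have h1 : σ (ev f [13, 10, 12, 11, 11]) = 1 := by rw [hf.ev, g_rel _ (by decide)]
    have h2 : (f 6)⁻¹ * f 5 * f 6 = ev f [13, 10, 12, 11, 11] * f 5 ^ 2 := by simp [ev, evL, pow_two, mul_assoc]
    generalize ev f [13, 10, 12, 11, 11] = z at h1 h2
    have c1 : ∀ x, Commute x z := h.comm h1
    have s7 : f 5 ^ 7 = 1 := (pw f 5 7).symm.trans (r0 _ (by decide))
    have h3 := congrArg (· ^ 7) h2
    simp only [icp, (c1 _).symm.mul_pow] at h3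
    rw [← pow_mul, mul_comm 2, pow_mul, s7, one_pow, mul_one, mul_one, inv_mul_cancel] at h3
    have h4 : f 3 * f 5 * (f 3)⁻¹ = (f 5)⁻¹ := by
      have := r0 [10, 6, 10, 6] (by decide)
      simp only [ev_cons, ev_nil, evL] at this
      norm_num at this
      rw [inv_eq_of_mul_eq_one_right (sq 3 (by norm_num)), mul_assoc]
      exact eq_inv_of_mul_eq_one_right this
    have h5 : f 3 * (z * f 5 ^ 2) * (f 3)⁻¹ = (z * f 5 ^ 2)⁻¹ := by
      rw [← h2]
      calc _ = (f 6)⁻¹ * (f 6 * f 3 * (f 6)⁻¹) * f 5 * (f 6 * (f 3)⁻¹ * (f 6)⁻¹) * f 6 := by group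
        _ = (f 6)⁻¹ * (f 3 * f 5 * (f 3)⁻¹) * f 6 := by
          rw [← conj_inv, cm 6 3 3 (by decide +kernel)]; group
        _ = _ := by rw [h4]; group
    rw [← mul_assoc, (c1 _).eq, mul_assoc, mul_assoc, ← mul_assoc (f 3), ← conj_pow, h4, inv_pow, mul_inv_rev,
      (c1 _).inv_right.eq, mul_left_inj, eq_inv_iff_mul_eq_one, ← pow_two] at h5
    simpa using pow_gcd_eq_one.2 ⟨h5, h3.symm⟩
  refine ⟨rels_append i1 (derive (invOk_of_sqW i1) (rels_append (rels_append (rels_append (rels_append k0 r0) k1) r1)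
    (r2 := [[11, 0, 10, 0], [11, 2, 10, 2], [11, 4, 10, 4], [13, 0, 12, 0], [13, 2, 12, 2], [13, 4, 12, 4],
      [13, 6, 12, 6], [13, 8, 12, 8], [12, 12, 12], [13, 10, 12, 11, 11]]) ?_) (hs := [9217, 14337, 10241, 15361, 16385,
      8193, 17409, 1025, 18433, 5121, 19457, 20481, 21505, 6145, 0, 27649, 22529, 23553, 24577, 25601, 26625, 28673])
    (by decide +kernel)), ?_⟩
  · simp only [List.forall_mem_cons]
    exact ⟨cm' 5 0 (by norm_num) (cm _ _ 7 (by decide +kernel)), cm' 5 1 (by norm_num) (cm _ _ 7 (by decide +kernel)),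
      cm' 5 2 (by norm_num) (cm _ _ 7 (by decide +kernel)), cm' 6 0 (by norm_num) (cm _ _ 3 (by decide +kernel)),
      cm' 6 1 (by norm_num) (cm _ _ 3 (by decide +kernel)), cm' 6 2 (by norm_num) (cm _ _ 3 (by decide +kernel)),
      cm' 6 3 (by norm_num) (cm _ _ 3 (by decide +kernel)), cm' 6 4 (by norm_num) (cm _ _ 3 (by decide +kernel)),
      (pw f 6 3).trans t2, t3, by simp⟩
  · rw [← t2, pow_succ, ← t1]
    simp [ev, evL, mul_assoc]

theorem ue_abs {u x e X W v : Γ} (cX : ∀ y, y * X = X * y) (cW : ∀ y, y * W = W * y) (h1 : u⁻¹ * x * u = X * (x * e))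
    (h2 : x * x = 1) (h3 : x * e * (x * e) = 1) (h4 : u * u = W * v) (h5 : x * v = v * x) : u⁻¹ * e * u * e = 1 := by
  have h6 := congrArg (· ^ 2) h1
  simp only [icp, (Commute.symm (cX _)).mul_pow] at h6
  rw [pow_two, pow_two, pow_two, h2, h3, mul_one, mul_one, inv_mul_cancel] at h6
  have h7 : x * (u * u) = u * u * x := by rw [h4, ← mul_assoc, cW, mul_assoc, h5, mul_assoc]
  have h8 : x = x * (e * (u⁻¹ * e * u)) :=
    calc x = u⁻¹ * (u⁻¹ * x * u) * u := by rw [eq_comm, mul_assoc, mul_assoc, mul_assoc, h7]; group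
      _ = X * (u⁻¹ * x * u) * (u⁻¹ * e * u) := by rw [h1, ← mul_assoc, cX, ← h1]; group
      _ = _ := by rw [h1, ← mul_assoc X X, ← h6, one_mul, mul_assoc]
  exact mul_eq_one_comm.1 (left_eq_mul.1 h8)

theorem rel_all (h : IsCentralExt σ) (hf : Lift σ f) (hN : ∀ e ∈ NW, ev f e.2 = 1) : ∀ w ∈ RG, ev f w = 1 := by
  obtain ⟨rH, rt⟩ := rel_H h hf hN
  let η : PH →* Γ := liftR ltH rH
  have η1 : ∀ {w : List ℕ}, (∀ x ∈ w, x / 2 < 7) → η (ev p w) = ev f w := fun hw =>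
    (map_ev η p _).trans (ev_congr fun x hx => liftR_of _ _ (hw x hx))
  have η2 : ∀ k, σ (η k) = πH k := fun k => (gen_le (H := (σ.comp η).eqLocus πH)).2 (fun w hw => by
    have : ∀ x ∈ w, x / 2 < 7 := by revert w; decide
    exact (congrArg σ (η1 this)).trans ((hf.ev w).trans (πH_ev this).symm)) (topH.ge (Subgroup.mem_top k))
  have η3 : ∀ x ∈ η.range, σ x = 1 → x = 1 := by
    rintro _ ⟨k, rfl⟩ e
    rw [πH_inj ((η2 k).symm.trans (e.trans (map_one _).symm)), map_one]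
  have η4 : ∀ L : List (List ℕ), (∀ w ∈ L, ∀ x ∈ w, x / 2 < 7) → ∀ w ∈ L, ev f w ∈ η.range := fun L hL w hw =>
    ⟨_, η1 (hL w hw)⟩
  have eq : ∀ l r, (eqH l r = true ∧ ∀ x ∈ l ++ r, x / 2 < 7) → ev f l = ev f r := fun l r e => by
    rw [← η1 fun x hx => e.2 x (List.mem_append_left _ hx), ← η1 fun x hx => e.2 x (List.mem_append_right _ hx),
      eqH_p e.1]
  have i1 : ∀ w ∈ sq5, ev f w = 1 := fun w hw => rH w (List.mem_append_left _ hw)
  obtain ⟨X, X1, X2⟩ : ∃ X, σ X = 1 ∧ (f 7)⁻¹ * ev f [2, 0, 4, 2] * f 7 = X * ev f ([2, 0, 4, 2] ++ [8]) := by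
    refine ⟨ev f ([15] ++ [2, 0, 4, 2] ++ [14] ++ [8, 2, 4, 0, 2]), (hf.ev _).trans (rel_rs _ (by simp)), ?_⟩
    rw [ev_append _ _ [8, 2, 4, 0, 2], mul_assoc _ _ (ev f _), ← ev_append _ [8, 2, 4, 0, 2],
      eq ([8, 2, 4, 0, 2] ++ _) [] (by decide +kernel), ev_append, ev_append]
    simp [ev, evL]
  have ue : ev f [15, 8, 14, 8] = 1 := by
    have := ue_abs (W := ev f [14, 14, 4, 0]) (v := ev f [0, 4]) (h.comm X1) (h.comm ((hf.ev _).trans (g_rel _ (by
      decide)))) (X2.trans (by rw [ev_append])) (by rw [← ev_append, eq _ [] (by decide +kernel), ev_nil])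
      (by rw [← ev_append, ← ev_append, eq _ [] (by decide +kernel), ev_nil]) (by
        rw [← ev_append, show [14, 14, 4, 0] ++ [0, 4] = [14, 14] ++ [4, 0, 0, 4] from rfl, ev_append,
          eq [4, 0, 0, 4] [] (by decide +kernel)]
        simp [ev, evL]) (by rw [← ev_append, ← ev_append, eq _ ([0, 4] ++ [2, 0, 4, 2]) (by decide +kernel)])
    simpa [ev, evL, mul_assoc] using this
  have r2 := cov_step h hf M2_model M2_chk (K := M2K) (R := M2R) (hs := M2h) (fun w hw => by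
    rcases (by decide : ∀ w ∈ sq5 ++ M2K, w ∈ sq5 ++ RH ∨ w = [15, 12, 14, 12] ∨ (7, w) ∈ NW ∨ w = [15, 8, 14, 8]) w hw
      with e | e | e | e
    exacts [rH w e, e ▸ rt, hN _ e, e ▸ ue]) (fun w hw => g_rel w (by revert w; decide)) η3 (η4 _ (by decide))
    (by decide +kernel)
  have rU : ∀ w ∈ RU, ev f w = 1 := fun w hw => by
    rcases (by decide : ∀ w ∈ RU, w ∈ M2R ∨ w = [15, 12, 14, 12] ∨ w = [15, 8, 14, 8]) w hw with e | e | e
    exacts [r2 w e, e ▸ rt, e ▸ ue]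
  let θ : PC →* Γ := liftR (g := fun i => if i = 1 then 1 else f i) ltC fun w hw => by
    rcases (by decide +kernel : ∀ w ∈ RC', w = [2, 2] ∨ w = [2] ∨ (w ∈ sq5 ++ RH ++ RU ∨ w = r0) ∧
      ∀ x ∈ w, x / 2 ≠ 1) w hw with rfl | rfl | ⟨h, h'⟩
    · simp [ev, evL]
    · simp [ev, evL]
    · refine (ev_congr fun x hx => if_neg (h' x hx)).trans (h.elim (rels_append rH rU w) fun e => ?_)
      rw [e, ← η1 (by decide), p_r0, map_one]
  have θ1 : ∀ {w : List ℕ}, (∀ x ∈ w, x / 2 < 8 ∧ x / 2 ≠ 1) → θ (ev q w) = ev f w := fun hw =>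
    (map_ev θ q _).trans (ev_congr fun x hx => (liftR_of _ _ (hw x hx).1).trans (if_neg (hw x hx).2))
  have θ2 : ∀ k, σ (θ k) = πC k := fun k => (gen_le (H := (σ.comp θ).eqLocus πC)).2 (fun w hw => by
    have : ∀ x ∈ w, x / 2 < 8 ∧ x / 2 ≠ 1 := by revert w; decide
    exact (congrArg σ (θ1 this)).trans ((hf.ev w).trans (πC_ev this).symm)) (topC.ge (Subgroup.mem_top k))
  have ca : ∀ y z : Γ, σ (y * f 0 * y⁻¹) = σ (z * f 0 * z⁻¹) → y * f 0 * y⁻¹ = z * f 0 * z⁻¹ := fun y z e => by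
    simp only [map_mul, map_inv, hf 0] at e
    obtain ⟨k, hk⟩ := cent_ga.le (Subgroup.mem_centralizer_singleton_iff.2 (show σ (z⁻¹ * y) * g 0 = _ by
      rw [map_mul, map_inv, mul_assoc, mul_inv_eq_iff_eq_mul.1 e]
      group))
    have h1 : θ k * f 0 = f 0 * θ k := by
      rw [← ev_single f 0, ← θ1 (by decide), ev_single, ← map_mul, a_comm, map_mul]
    have h2 := h.comm (k := (θ k)⁻¹ * (z⁻¹ * y)) (by rw [map_mul, map_inv, θ2, hk, inv_mul_cancel]) (f 0)
    calc _ = z * θ k * ((θ k)⁻¹ * (z⁻¹ * y) * f 0) * y⁻¹ := by group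
      _ = z * (θ k * f 0) * (θ k)⁻¹ * z⁻¹ := by rw [← h2]; group
      _ = _ := by rw [h1]; group
  have cj : ∀ x w v, (eqH (x ++ w) (v ++ x) = true ∧ ∀ y ∈ x ++ w ++ (v ++ x), y / 2 < 7) →
      ev f x * ev f w * (ev f x)⁻¹ = ev f v := fun x w v e => by
    rw [← ev_append, eq _ _ e, ev_append, mul_inv_cancel_right]
  have X4 : X = 1 := by
    have c1 := cj [2, 4, 0, 2] [2 * 0] [4] (by decide +kernel)
    have c2 := cj [2, 4, 6, 4, 6, 2, 4, 0, 2] [2 * 0] [2, 0, 4, 2] (by decide +kernel)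
    have c3 := cj [2, 4, 6, 0, 2, 4, 6] ([2, 0, 4, 2] ++ [8]) [4, 10, 8, 6, 4, 6, 8, 11, 10, 10, 8, 6, 4, 6, 8, 11, 11,
      12, 10, 8, 6, 4, 6, 8, 11, 13] (by decide +kernel)
    have c4 : ev f ([15, 6] ++ [4]) = ev f ([4, 10, 8, 6, 4, 6, 8, 11, 10, 10, 8, 6, 4, 6, 8, 11, 11,
      12, 10, 8, 6, 4, 6, 8, 11, 13] ++ [15, 6]) := by
      rw [← θ1 (by decide), ← θ1 (by decide)]
      exact congrArg θ (eqC_q (by decide +kernel))
    rw [ev_append, ev_append, ← c3, ← mul_inv_eq_iff_eq_mul, ← c1] at c4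
    rw [← c2] at X2
    rw [ev_single] at c4 X2
    generalize ev f ([2, 0, 4, 2] ++ [8]) = v at c4 X2
    generalize ev f [2, 4, 6, 0, 2, 4, 6] = y at c4
    have h1 : y * (f 7)⁻¹ * ev f [2, 4, 6, 4, 6, 2, 4, 0, 2] * f 0 * (y * (f 7)⁻¹ * ev f [2, 4, 6, 4, 6, 2, 4, 0, 2])⁻¹ =
        y * (X * v) * y⁻¹ := by rw [← X2]; group
    have h2 : ev f [15, 6] * ev f [2, 4, 0, 2] * f 0 * (ev f [15, 6] * ev f [2, 4, 0, 2])⁻¹ = y * v * y⁻¹ := by
      rw [← c4]; group
    have := ca _ _ ((congrArg σ h1).trans (Eq.trans (by simp [X1]) (congrArg σ h2).symm))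
    rw [h1, h2] at this
    simpa using this
  have rb : ev f [15, 2, 4, 0, 2, 14, 2, 0, 4, 2, 8] = 1 := by
    rw [X4, one_mul, eq [2, 0, 4, 2] [2, 4, 0, 2] (by decide +kernel)] at X2
    rw [show [15, 2, 4, 0, 2, 14, 2, 0, 4, 2, 8] = [2 * 7 + 1] ++ [2, 4, 0, 2] ++ [2 * 7] ++ ([2, 0, 4, 2] ++ [8]) from rfl,
      ev_append, ev_append, ev_append, ev_single, ev_cons, ev_nil, evL_two_mul_add_one, mul_one, X2, ← ev_append,
      eq _ [] (by decide +kernel), ev_nil]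
  have r3 := cov_step h hf M3_model M3_chk (K := M3K) (R := M3R) (hs := M3h) (fun w hw => by
    rcases (by decide : ∀ w ∈ sq5 ++ M3K, w ∈ sq5 ++ RH ++ RU ∨ w = [15, 2, 4, 0, 2, 14, 2, 0, 4, 2, 8]) w hw
      with e | e
    exacts [rels_append rH rU w e, e ▸ rb]) (fun w hw => g_rel w (by revert w; decide)) η3 (η4 _ (by decide))
    (by decide +kernel)
  exact rels_append (rels_append rH rU) (List.forall_mem_cons.2 ⟨rb, r3⟩)

theorem mult : Cfsg.HasCyclicSchurMultiplier Th 1 := trivial_mult_iff.2 fun Γ _ _ σ hσ => by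
  obtain ⟨f, hf, hN⟩ := exists_lift (centralExt_of_stem hσ)
  refine ker_eq_bot_of_section hσ (liftTh (rel_all (centralExt_of_stem hσ) hf hN)) (MonoidHom.ext fun x =>
    (gen_le (H := (σ.comp (liftTh _)).eqLocus (MonoidHom.id _))).2 (fun w hw => ?_) (topG.ge (Subgroup.mem_top x)))
  obtain ⟨j, hj, rfl⟩ : ∃ j < 8, [2 * j] = w := by revert w; decide
  rw [ev_single]
  exact (congrArg σ (liftTh_g _ hj)).trans (hf j)

end CfsgLib.Th
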